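import Mathlib.Data.Int.GCD
import Mathlib.Algebra.BigOperators.Pi
import Mathlib.FieldTheory.Finite.Basic
import Mathlib.Algebra.Group.Subgroup.Lattice
import Mathlib.Tactic

/-!
# Banaschewski's lemma for rings of integer-valued functions without identity
-/

set_option autoImplicit false

namespace CfsgLib.Brauer

variable {S : Type*}

/-- If at every point some member of `R` is prime to `p`, some member is `≡ 1 (mod p)`
everywhere. -/
theorem exists_mem_modEq_one [Finite S] (R : AddSubgroup (S → ℤ))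
    (hmul : ∀ f ∈ R, ∀ g ∈ R, f * g ∈ R) (p : ℕ) [Fact p.Prime]
    (h : ∀ x, ∃ f ∈ R, ¬ (p : ℤ) ∣ f x) :
    ∃ e ∈ R, ∀ x, ((e x : ℤ) : ZMod p) = 1 := by
  classical
  have : Fintype S := Fintype.ofFinite S
  suffices ∀ s : Finset S, ∃ e ∈ R, ∀ x ∈ s, ((e x : ℤ) : ZMod p) = 1 by
    obtain ⟨e, he, hx⟩ := this Finset.univ
    exact ⟨e, he, fun x => hx x (Finset.mem_univ x)⟩
  intro s
  induction s using Finset.induction_on with
  | empty => exact ⟨0, R.zero_mem, by simp⟩
  | insert a t hat ih =>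
    obtain ⟨e, he, het⟩ := ih
    obtain ⟨f, hf, hfa⟩ := h a
    have hpow : ∀ n : ℕ, f ^ (n + 1) ∈ R := by
      intro n
      induction n with
      | zero => simpa using hf
      | succ k ihk => rw [pow_succ]; exact hmul _ ihk _ hf
    obtain ⟨m, hm⟩ : ∃ m, p - 1 = m + 1 :=
      ⟨p - 2, by have := (Fact.out : p.Prime).two_le; omega⟩
    refine ⟨e + f ^ (m + 1) - e * f ^ (m + 1),
      R.sub_mem (R.add_mem he (hpow m)) (hmul _ he _ (hpow m)), ?_⟩
    intro x hx
    rcases Finset.mem_insert.1 hx with rfl | hx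
    · have : ((f x : ℤ) : ZMod p) ≠ 0 := by rwa [Ne, ZMod.intCast_zmod_eq_zero_iff_dvd]
      simp only [Pi.sub_apply, Pi.add_apply, Pi.mul_apply, Pi.pow_apply]
      push_cast
      rw [← hm, ZMod.pow_card_sub_one_eq_one this]
      ring
    · simp only [Pi.sub_apply, Pi.add_apply, Pi.mul_apply, Pi.pow_apply]
      push_cast
      rw [het x hx]
      ring

/-- A constant prime to `p` lies in `R`. -/
theorem exists_const_mem [Finite S] (R : AddSubgroup (S → ℤ))
    (hmul : ∀ f ∈ R, ∀ g ∈ R, f * g ∈ R) (p : ℕ) [Fact p.Prime]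
    (h : ∀ x, ∃ f ∈ R, ¬ (p : ℤ) ∣ f x) :
    ∃ m : ℤ, ¬ (p : ℤ) ∣ m ∧ (fun _ : S => m) ∈ R := by
  classical
  have : Fintype S := Fintype.ofFinite S
  obtain ⟨e, he, hex⟩ := exists_mem_modEq_one R hmul p h
  have key : ∀ s : Finset ℤ, ∃ r ∈ R, (∏ v ∈ s, ((fun _ : S => v) - e)) = (fun _ : S => ∏ v ∈ s, v) + r := by
    intro s
    induction s using Finset.induction_on with
    | empty => exact ⟨0, R.zero_mem, by ext x; simp⟩
    | insert v t hvt ih =>
      obtain ⟨r, hr, hprod⟩ := ih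
      refine ⟨v • r - (∏ w ∈ t, w) • e - e * r, R.sub_mem (R.sub_mem (R.zsmul_mem hr v)
        (R.zsmul_mem he _)) (hmul _ he _ hr), ?_⟩
      rw [Finset.prod_insert hvt, Finset.prod_insert hvt, hprod]
      ext x
      simp only [Pi.add_apply, Pi.mul_apply, Pi.sub_apply, Pi.smul_apply, smul_eq_mul]
      ring
  obtain ⟨r, hr, hprod⟩ := key (Finset.univ.image e)
  refine ⟨∏ v ∈ Finset.univ.image e, v, ?_, ?_⟩
  · intro hdvd
    have : ((∏ v ∈ Finset.univ.image e, v : ℤ) : ZMod p) = 1 := by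
      push_cast
      refine Finset.prod_eq_one fun v hv => ?_
      obtain ⟨x, _, rfl⟩ := Finset.mem_image.1 hv
      exact hex x
    rw [(ZMod.intCast_zmod_eq_zero_iff_dvd _ p).2 hdvd] at this
    exact zero_ne_one this
  · have hzero : (∏ v ∈ Finset.univ.image e, ((fun _ : S => v) - e)) = 0 := by
      ext x
      rw [Finset.prod_apply]
      refine Finset.prod_eq_zero (Finset.mem_image.2 ⟨x, Finset.mem_univ _, rfl⟩) ?_
      simp
    rw [hzero] at hprod
    rw [eq_neg_of_add_eq_zero_left hprod.symm]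
    exact R.neg_mem hr

/-- If for every prime `p` and every point some member is prime to `p` there, then `1 ∈ R`. -/
theorem one_mem_of_forall_exists [Finite S] (R : AddSubgroup (S → ℤ))
    (hmul : ∀ f ∈ R, ∀ g ∈ R, f * g ∈ R)
    (h : ∀ p : ℕ, p.Prime → ∀ x, ∃ f ∈ R, ¬ (p : ℤ) ∣ f x) : (1 : S → ℤ) ∈ R := by
  let I : AddSubgroup ℤ := R.comap (Pi.constAddMonoidHom S ℤ)
  obtain ⟨d, hd⟩ := Int.subgroup_cyclic I
  have hkey : ∀ p : ℕ, p.Prime → ¬ (p : ℤ) ∣ d := by
    intro p hp hpd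
    have := Fact.mk hp
    obtain ⟨m, hm, hmR⟩ := exists_const_mem R hmul p (h p hp)
    have : m ∈ AddSubgroup.closure {d} := by rw [← hd]; exact hmR
    rw [AddSubgroup.mem_closure_singleton] at this
    obtain ⟨k, rfl⟩ := this
    exact hm (by rw [smul_eq_mul]; exact dvd_mul_of_dvd_right hpd k)
  have hd1 : d.natAbs = 1 := by
    by_contra hne
    obtain ⟨p, hp, hpd⟩ := Nat.exists_prime_and_dvd hne
    exact hkey p hp (Int.natCast_dvd.2 hpd)
  have h1 : (1 : ℤ) ∈ I := by
    rw [hd, AddSubgroup.mem_closure_singleton]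
    rcases Int.natAbs_eq_iff.1 hd1 with rfl | rfl
    · exact ⟨1, by simp⟩
    · exact ⟨-1, by simp⟩
  exact h1

end CfsgLib.Brauer
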